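import Cfsg.Agent.Lib.Helper17.ChevPerf

set_option autoImplicit false

/-!
# Two-generation of the Chevalley groups (project GEN2 = S2405): package statements
-/

namespace Cfsg.Agent.Lib.Helper36.Gen2

open Cfsg Cfsg.Lie

universe u

/-- two elements of the Chevalley group generate it (stated inside the general linear group);
the field has more than two elements -/
def PkgBig (D : ChevalleyDatum) : Prop :=
  ∀ (F : Type u) [Field F] [Finite F], (∃ x : F, x ≠ 0 ∧ x ≠ 1) →
    ∃ a b : GL D.Idx F, a ∈ D.group F ∧ b ∈ D.group F ∧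
      D.group F ≤ Subgroup.closure ({a, b} : Set (GL D.Idx F))

/-- two elements of the Chevalley group generate it (stated inside the general linear group);
any finite field -/
def PkgAll (D : ChevalleyDatum) : Prop :=
  ∀ (F : Type u) [Field F] [Finite F],
    ∃ a b : GL D.Idx F, a ∈ D.group F ∧ b ∈ D.group F ∧
      D.group F ≤ Subgroup.closure ({a, b} : Set (GL D.Idx F))

/-- package [B2] -/
def PkgB2 : Prop := PkgBig.{u} chevB2

/-- package [G2] -/
def PkgG2 : Prop := PkgBig.{u} chevG2

/-- package [F4] -/
def PkgF4 : Prop := PkgAll.{u} chevF4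

/-- package [D4] -/
def PkgD4 : Prop := PkgAll.{u} chevD4

/-- package [E6] -/
def PkgE6 : Prop := PkgAll.{u} chevE6

/-- package [E7] -/
def PkgE7 : Prop := PkgAll.{u} chevE7

/-- package [E8] -/
def PkgE8 : Prop := PkgAll.{u} chevE8

end Cfsg.Agent.Lib.Helper36.Gen2
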