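import Cfsg.Agent.Lib.Helper36.Gen2.Two

set_option autoImplicit false

/-!
# Two-generation over fields with more than two elements: `a = h_i(ζ) x_s(1) x_r(1)` with
`h_i(ζ)` centralising `x_r(1)` but not `x_s(1)`, and `b = n_l`
-/

namespace Cfsg.Agent.Lib.Helper36.Gen2

open Cfsg Cfsg.Lie Cfsg.Agent.Lib.Helper18

universe u

section

variable {F : Type*} [Field F] (D : ChevalleyDatum)
  (hD : D ∈ [chevG2, chevB2, chevD4, chevF4, chevE6, chevE7, chevE8])

/-- fill-up of a root subgroup by an element acting on it through `ζ^{±1}` -/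
theorem fill_core (K : Subgroup (GL D.Idx F)) (g : GL D.Idx F) (hg : g ∈ K) (ζ : F)
    (hζ0 : ζ ≠ 0) (hgen : ∀ t : F, t ≠ 0 → ∃ n : ℕ, t = ζ ^ n) (w : ℕ) (e : ℤ)
    (he : e = 1 ∨ e = -1) (hconj : ∀ u : F, g * xU D hD w u = xU D hD w (ζ ^ e * u) * g)
    (h1 : xU D hD w (1 : F) ∈ K) (t : F) : xU D hD w t ∈ K := by
  have hmul : ∀ u : F, xU D hD w u ∈ K → xU D hD w (ζ * u) ∈ K := by
    intro u hu
    rcases he with hc1 | hc1
    · have e1 := hconj u
      rw [hc1, zpow_one] at e1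
      have e' : xU D hD w (ζ * u) = g * xU D hD w u * g⁻¹ := by rw [e1]; group
      rw [e']; exact K.mul_mem (K.mul_mem hg hu) (K.inv_mem hg)
    · have e1 := hconj (ζ * u)
      rw [hc1, zpow_neg_one, ← mul_assoc, inv_mul_cancel₀ hζ0, one_mul] at e1
      have e' : xU D hD w (ζ * u) = g⁻¹ * (xU D hD w u * g) := by rw [← e1]; group
      rw [e']; exact K.mul_mem (K.inv_mem hg) (K.mul_mem hu hg)
  have hpow : ∀ n : ℕ, xU D hD w (ζ ^ n) ∈ K := by
    intro n
    induction n with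
    | zero => simpa using h1
    | succ n ih => rw [pow_succ']; exact hmul _ ih
  by_cases ht : t = 0
  · rw [ht, Cfsg.Agent.Lib.Helper18.xU_zero]; exact K.one_mem
  · obtain ⟨n, rfl⟩ := hgen t ht
    exact hpow n

theorem nW_rep_mem (K : Subgroup (GL D.Idx F)) (l : List (Fin D.rank))
    (hb : nW (F := F) D hD l ∈ K) (k : ℕ) :
    nW (F := F) D hD (List.replicate k l).flatten ∈ K := by
  induction k with
  | zero => simpa [nW] using K.one_mem
  | succ k ih =>
    rw [List.replicate_succ, List.flatten_cons, nW_append]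
    exact K.mul_mem hb ih

/-- the machine without the torus steps -/
theorem step_inv2 (K : Subgroup (GL D.Idx F)) (l : List (Fin D.rank))
    (hb : nW (F := F) D hD l ∈ K) (i : ℕ) (st : ℕ × ℕ) (c : ℕ × ℕ × ℕ × ℕ)
    (hc2 : 2 ≤ c.1) (hst : Inv D hD K st) : Inv D hD K (step D l i st c) := by
  have htab := Cfsg.Agent.Lib.Helper17.tabOK_of_mem D hD
  unfold step
  rcases h0 : Nat.beq c.1 0 with _ | _
  · rcases h1 : Nat.beq c.1 1 with _ | _
    · rcases h2 : Nat.beq c.1 2 with _ | _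
      · simp only [cond_false]
        rcases hb4 : (and (Nat.testBit st.2 c.2.2.1) (and (Nat.testBit st.2 c.2.2.2)
          (and (Nat.blt c.2.1 D.nroots)
            (Cfsg.Agent.Lib.Helper17.oneT D c.2.1 (c.2.2.1, c.2.2.2))))) with _ | _
        · exact hst
        · simp only [cond_true]
          simp only [Bool.and_eq_true, Nat.blt_eq] at hb4
          obtain ⟨hr, hs, hwlt, ho⟩ := hb4
          obtain ⟨h1', h2', h3, h4, ε, hε, hct⟩ :=
            Cfsg.Agent.Lib.Helper17.oneT_spec htab _ _ ho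
          refine ⟨hst.1, fun v hv => ?_⟩
          rcases testBit_lor_pow _ _ _ hv with hv | rfl
          · exact hst.2 v hv
          · exact ⟨hwlt, fun t => sum_full D hD K _ _ _ ε h1' h2' h3 h4 hct
              (by rcases hε with rfl | rfl <;> simp) (hst.2 _ hr).2 (hst.2 _ hs).2 t⟩
      · simp only [cond_false, cond_true]
        rcases hb4 : (and (Nat.testBit st.2 c.2.2.1) (Nat.beq (wordF D l c.2.2.1) c.2.1))
          with _ | _
        · exact hst
        · simp only [cond_true]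
          simp only [Bool.and_eq_true] at hb4
          obtain ⟨hr, hw⟩ := hb4
          have hw' : wordF D l c.2.2.1 = c.2.1 := Nat.eq_of_beq_eq_true hw
          refine ⟨hst.1, fun v hv => ?_⟩
          rcases testBit_lor_pow _ _ _ hv with hv | rfl
          · exact hst.2 v hv
          · rw [← hw']
            exact ⟨wordF_lt D hD l _ (hst.2 _ hr).1,
              fun t => conj_full D hD K l hb _ (hst.2 _ hr).1 (hst.2 _ hr).2 t⟩
    · exfalso
      have := Nat.eq_of_beq_eq_true h1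
      omega
  · exfalso
    have := Nat.eq_of_beq_eq_true h0
    omega

theorem run_inv2 (K : Subgroup (GL D.Idx F)) (l : List (Fin D.rank))
    (hb : nW (F := F) D hD l ∈ K) (i : ℕ) (cs : List (ℕ × ℕ × ℕ × ℕ))
    (hcs : ∀ c ∈ cs, 2 ≤ c.1) (st : ℕ × ℕ)
    (hst : Inv D hD K st) : Inv D hD K (run D l i cs st) := by
  induction cs generalizing st with
  | nil => exact hst
  | cons c cs ih =>
    exact ih (fun c' hc' => hcs c' (List.mem_cons_of_mem _ hc')) _
      (step_inv2 D hD K l hb i st c (hcs c List.mem_cons_self) hst)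

end

/-- two-generation over fields with more than two elements from certificates -/
theorem pkgBig_of_cert (D : ChevalleyDatum)
    (hD : D ∈ [chevG2, chevB2, chevD4, chevF4, chevE6, chevE7, chevE8])
    (l : List (Fin D.rank)) (i r s k δ v : ℕ) (ε : ℤ) (cs1 cs2 : List (ℕ × ℕ × ℕ × ℕ))
    (hi : i < D.rank) (hr : r < D.nroots) (hs : s < D.nroots)
    (hcr : D.cartan i r = 0) (hcs : D.cartan i s = 1 ∨ D.cartan i s = -1)
    (hrs : commB D r s = true)
    (hws : commB D (wordF D (List.replicate k l).flatten r) s = true)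
    (hcw : D.cartan i (wordF D (List.replicate k l).flatten r) = 1 ∨
      D.cartan i (wordF D (List.replicate k l).flatten r) = -1)
    (hδ : δ < D.nroots) (hsδ : s ≠ δ) (hsnδ : s ≠ D.neg δ)
    (hct : D.commTerms δ s = [(v, ε, 1, 1)]) (hε : ε = 1 ∨ ε = -1) (hv : v < D.nroots)
    (hk1 : ∀ c ∈ cs1, 2 ≤ c.1) (hk2 : ∀ c ∈ cs2, 2 ≤ c.1)
    (h1 : Nat.testBit (run D l i cs1 (0, 2 ^ (wordF D (List.replicate k l).flatten r))).2 δ
      = true)
    (h2 : (run D l i cs2 ((run D l i cs1 (0, 2 ^ (wordF D (List.replicate k l).flatten r))).1,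
      (run D l i cs1 (0, 2 ^ (wordF D (List.replicate k l).flatten r))).2 ||| 2 ^ v)).2 =
        2 ^ D.nroots - 1) : PkgBig.{u} D := by
  intro F _ _ hF2
  obtain ⟨ζ, hζ0, hgen, N, hN, hN1⟩ := exists_gen F
  have hζ1 : ζ ≠ 1 := by
    rintro rfl
    obtain ⟨x, hx0, hx1⟩ := hF2
    obtain ⟨n, hn⟩ := hgen x hx0
    rw [one_pow] at hn
    exact hx1 hn
  obtain ⟨h, hdef⟩ : ∃ h : GL D.Idx F, h = wordU D hD (D.hWord (D.simple i) ζ) := ⟨_, rfl⟩
  have hc : ((h : GL D.Idx F) : Matrix D.Idx D.Idx F) = D.hMat F (D.simple i) ζ := by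
    rw [hdef, coe_wordU]; rfl
  have hhG : h ∈ D.group F := by rw [hdef]; exact wordU_mem_group D hD _
  have hconj : ∀ (w : ℕ), w < D.nroots → ∀ u : F,
      h * xU D hD w u = xU D hD w (ζ ^ (D.cartan i w) * u) * h := fun w hw u =>
    Units.ext (by
      simp only [Units.val_mul, coe_xU, hc]
      exact Cfsg.Agent.S1032.result D hD i w hi hw ζ hζ0 u)
  simp only [commB, decide_eq_true_eq] at hrs hws
  obtain ⟨w, hwdef⟩ : ∃ w : ℕ, w = wordF D (List.replicate k l).flatten r := ⟨_, rfl⟩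
  rw [← hwdef] at hws hcw h1 h2
  -- the elements
  obtain ⟨c', hc'def⟩ : ∃ c' : GL D.Idx F, c' = h * xU D hD s 1 := ⟨_, rfl⟩
  refine ⟨c' * xU D hD r 1, nW D hD l, ?_, nW_mem_group D hD l, ?_⟩
  · rw [hc'def]
    exact (D.group F).mul_mem ((D.group F).mul_mem hhG (xU_mem_group D hD _ _))
      (xU_mem_group D hD _ _)
  obtain ⟨K, hK⟩ : ∃ K : Subgroup (GL D.Idx F),
      K = Subgroup.closure ({c' * xU D hD r 1, nW D hD l} : Set (GL D.Idx F)) := ⟨_, rfl⟩
  rw [← hK]
  have ha : c' * xU D hD r 1 ∈ K := by rw [hK]; exact Subgroup.subset_closure (by simp)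
  have hb : nW (F := F) D hD l ∈ K := by rw [hK]; exact Subgroup.subset_closure (by simp)
  -- `c'` is conjugate to `h`
  obtain ⟨χ, hχdef⟩ : ∃ χ : F, χ = ζ ^ (D.cartan i s) := ⟨_, rfl⟩
  have hχ1 : χ ≠ 1 := by
    rw [hχdef]
    rcases hcs with h' | h' <;> rw [h']
    · rwa [zpow_one]
    · rw [zpow_neg_one]
      intro h''
      exact hζ1 (inv_eq_one.mp h'')
  have hχ1' : (1 : F) - χ ≠ 0 := sub_ne_zero.mpr (Ne.symm hχ1)
  have hcs' : ∀ u : F, h * xU D hD s u = xU D hD s (χ * u) * h := by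
    intro u; rw [hχdef]; exact hconj s hs u
  have hconjg : c' = xU D hD s (χ / (1 - χ)) * h * (xU D hD s (χ / (1 - χ)))⁻¹ := by
    have e1 : h * xU D hD s (1 : F) = xU D hD s χ * h := by rw [hcs', mul_one]
    have e2 : xU D hD s (χ / (1 - χ)) * h * xU D hD s (-(χ / (1 - χ))) = xU D hD s χ * h := by
      rw [mul_assoc, hcs', ← mul_assoc, Cfsg.Agent.Lib.Helper17.xU_mul_xU D hD s hs]
      congr 2
      field_simp
      ring
    rw [hc'def, Cfsg.Agent.Lib.Helper18.xU_inv, e1, e2]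
  have hhN : h ^ N = 1 := Units.ext (by
    rw [hU_pow D hD h i hi ζ hζ0 hc, hN, hMat_one D hD _ (simple_lt D hD i hi)]; rfl)
  have hc'N : c' ^ N = 1 := by
    rw [hconjg, conj_pow, hhN]; group
  have hcomm : Commute c' (xU D hD r (1 : F)) := by
    show c' * xU D hD r 1 = xU D hD r 1 * c'
    have e1 : h * xU D hD r (1 : F) = xU D hD r 1 * h := by
      have := hconj r hr 1
      rwa [hcr, zpow_zero, one_mul] at this
    have e2 : xU D hD s (1 : F) * xU D hD r 1 = xU D hD r 1 * xU D hD s 1 :=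
      xU_comm D hD r s hrs.1 hrs.2.1 hrs.2.2.1 hrs.2.2.2.1 hrs.2.2.2.2 1 1
    rw [hc'def, mul_assoc, e2, ← mul_assoc, e1, mul_assoc]
  have hpow : (c' * xU D hD r (1 : F)) ^ N = xU D hD r (-1) := by
    rw [hcomm.mul_pow N, hc'N, one_mul, xU_pow D hD r hr, mul_one, hN1]
  have hx1 : xU D hD r (1 : F) ∈ K := by
    have h2' : xU D hD r (-1 : F) ∈ K := by rw [← hpow]; exact K.pow_mem ha N
    have h3 := K.inv_mem h2'
    rwa [Cfsg.Agent.Lib.Helper18.xU_inv, neg_neg] at h3
  have hc'K : c' ∈ K := by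
    have e : c' = c' * xU D hD r 1 * (xU D hD r (1 : F))⁻¹ := by group
    rw [e]; exact K.mul_mem ha (K.inv_mem hx1)
  -- the root `w`
  have hw1 : xU D hD w (1 : F) ∈ K := by
    rw [hwdef]
    exact conj_one D hD K _ (nW_rep_mem D hD K l hb k) r hr hx1
  have hwlt : w < D.nroots := hws.1
  have hwfull : ∀ t : F, xU D hD w t ∈ K := by
    refine fill_core D hD K c' hc'K ζ hζ0 hgen w (D.cartan i w) hcw (fun u => ?_) hw1
    have e2 : xU D hD s (1 : F) * xU D hD w u = xU D hD w u * xU D hD s 1 :=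
      xU_comm D hD w s hws.1 hws.2.1 hws.2.2.1 hws.2.2.2.1 hws.2.2.2.2 u 1
    rw [hc'def, mul_assoc, e2, ← mul_assoc, hconj w hwlt u, mul_assoc]
  have inv1 := run_inv2 D hD K l hb i cs1 hk1 (0, 2 ^ w)
    ⟨fun x hx => by simp at hx,
      fun x hx => by
        rw [Nat.testBit_two_pow] at hx
        have e : w = x := of_decide_eq_true hx
        subst e
        exact ⟨hwlt, hwfull⟩⟩
  have hδfull : ∀ t : F, xU D hD δ t ∈ K := (inv1.2 δ h1).2
  -- the twist
  have hvfull : ∀ t : F, xU D hD v t ∈ K := by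
    intro t
    obtain ⟨t', ht'⟩ : ∃ t' : F, t = (ε : F) * (-t') * 1 := by
      rcases hε with rfl | rfl
      · exact ⟨-t, by push_cast; ring⟩
      · exact ⟨t, by push_cast; ring⟩
    have hcf := xU_cf1 D hD δ s v ε hδ hs hsδ hsnδ hct t' (1 : F)
    have e1 : h * xU D hD δ (-t') = xU D hD δ (ζ ^ (D.cartan i δ) * -t') * h := hconj δ hδ (-t')
    have e2 : xU D hD s (-1 : F) * xU D hD δ (-t') * xU D hD s 1 =
        c'⁻¹ * xU D hD δ (ζ ^ (D.cartan i δ) * -t') * c' := by
      have e3 : xU D hD δ (ζ ^ (D.cartan i δ) * -t') = h * xU D hD δ (-t') * h⁻¹ := by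
        rw [e1]; group
      rw [e3, hc'def, mul_inv_rev, Cfsg.Agent.Lib.Helper18.xU_inv]
      group
    have e4 : xU D hD v t =
        xU D hD s (-1 : F) * xU D hD δ (-t') * xU D hD s 1 * xU D hD δ t' := by
      rw [ht', mul_assoc (xU D hD s (-1 : F) * xU D hD δ (-t')), hcf,
        ← Cfsg.Agent.Lib.Helper18.xU_inv, ← Cfsg.Agent.Lib.Helper18.xU_inv]
      group
    rw [e4, e2]
    exact K.mul_mem (K.mul_mem (K.mul_mem (K.inv_mem hc'K) (hδfull _)) hc'K) (hδfull _)
  apply le_of_full D hD K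
  intro x hx t
  have inv2 := run_inv2 D hD K l hb i cs2 hk2 _
    (show Inv D hD K ((run D l i cs1 (0, 2 ^ w)).1, (run D l i cs1 (0, 2 ^ w)).2 ||| 2 ^ v) from
      ⟨inv1.1, fun y hy => by
        rcases testBit_lor_pow _ _ _ hy with hy | rfl
        · exact inv1.2 y hy
        · exact ⟨hv, hvfull⟩⟩)
  exact (inv2.2 x (by rw [h2, Nat.testBit_two_pow_sub_one]; simpa using hx)).2 t

end Cfsg.Agent.Lib.Helper36.Gen2
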