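import Cfsg.Agent.Lib.Helper36.Gen2.Big

set_option autoImplicit false

/-!
# Two-generation over fields with more than two elements: the common first half
(`a = h_i(ζ) x_s(1) x_r(1)`, `b = n_l`), stated as facts about `K = ⟨a, b⟩`
-/

namespace Cfsg.Agent.Lib.Helper36.Gen2

open Cfsg Cfsg.Lie Cfsg.Agent.Lib.Helper18

universe u

theorem big_core (D : ChevalleyDatum)
    (hD : D ∈ [chevG2, chevB2, chevD4, chevF4, chevE6, chevE7, chevE8])
    (l : List (Fin D.rank)) (i r s k : ℕ) (cs1 : List (ℕ × ℕ × ℕ × ℕ))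
    (hi : i < D.rank) (hr : r < D.nroots) (hs : s < D.nroots)
    (hcr : D.cartan i r = 0) (hcs : D.cartan i s = 1 ∨ D.cartan i s = -1)
    (hrs : commB D r s = true)
    (hws : commB D (wordF D (List.replicate k l).flatten r) s = true)
    (hcw : D.cartan i (wordF D (List.replicate k l).flatten r) = 1 ∨
      D.cartan i (wordF D (List.replicate k l).flatten r) = -1)
    (hk1 : ∀ c ∈ cs1, 2 ≤ c.1) {F : Type u} [Field F] [Finite F]
    (hF2 : ∃ x : F, x ≠ 0 ∧ x ≠ 1) :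
    ∃ a b : GL D.Idx F, a ∈ D.group F ∧ b ∈ D.group F ∧
      ∀ K : Subgroup (GL D.Idx F), K = Subgroup.closure ({a, b} : Set (GL D.Idx F)) →
        nW (F := F) D hD l ∈ K ∧
        Inv D hD K (run D l i cs1 (0, 2 ^ (wordF D (List.replicate k l).flatten r))) ∧
        (∀ δ < D.nroots, (∀ t : F, xU D hD δ t ∈ K) →
          ∀ y : F, xU D hD s (-1 : F) * xU D hD δ y * xU D hD s 1 ∈ K) := by
  obtain ⟨ζ, hζ0, hgen, N, hN, hN1⟩ := exists_gen F
  have hζ1 : ζ ≠ 1 := by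
    rintro rfl
    obtain ⟨x, hx0, hx1⟩ := hF2
    obtain ⟨n, hn⟩ := hgen x hx0
    rw [one_pow] at hn
    exact hx1 hn
  obtain ⟨h, hdef⟩ : ∃ h : GL D.Idx F, h = wordU D hD (D.hWord (D.simple i) ζ) := ⟨_, rfl⟩
  have hc : ((h : GL D.Idx F) : Matrix D.Idx D.Idx F) = D.hMat F (D.simple i) ζ := by
    rw [hdef, coe_wordU]; rfl
  have hhG : h ∈ D.group F := by rw [hdef]; exact wordU_mem_group D hD _
  have hconj : ∀ (w : ℕ), w < D.nroots → ∀ u : F,
      h * xU D hD w u = xU D hD w (ζ ^ (D.cartan i w) * u) * h := fun w hw u =>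
    Units.ext (by
      simp only [Units.val_mul, coe_xU, hc]
      exact Cfsg.Agent.S1032.result D hD i w hi hw ζ hζ0 u)
  simp only [commB, decide_eq_true_eq] at hrs hws
  obtain ⟨w, hwdef⟩ : ∃ w : ℕ, w = wordF D (List.replicate k l).flatten r := ⟨_, rfl⟩
  rw [← hwdef] at hws hcw ⊢
  -- the elements
  obtain ⟨c', hc'def⟩ : ∃ c' : GL D.Idx F, c' = h * xU D hD s 1 := ⟨_, rfl⟩
  refine ⟨c' * xU D hD r 1, nW D hD l, ?_, nW_mem_group D hD l, ?_⟩
  · rw [hc'def]
    exact (D.group F).mul_mem ((D.group F).mul_mem hhG (xU_mem_group D hD _ _))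
      (xU_mem_group D hD _ _)
  intro K hK
  have ha : c' * xU D hD r 1 ∈ K := by rw [hK]; exact Subgroup.subset_closure (by simp)
  have hb : nW (F := F) D hD l ∈ K := by rw [hK]; exact Subgroup.subset_closure (by simp)
  -- `c'` is conjugate to `h`
  obtain ⟨χ, hχdef⟩ : ∃ χ : F, χ = ζ ^ (D.cartan i s) := ⟨_, rfl⟩
  have hχ1 : χ ≠ 1 := by
    rw [hχdef]
    rcases hcs with h' | h' <;> rw [h']
    · rwa [zpow_one]
    · rw [zpow_neg_one]
      intro h''
      exact hζ1 (inv_eq_one.mp h'')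
  have hχ1' : (1 : F) - χ ≠ 0 := sub_ne_zero.mpr (Ne.symm hχ1)
  have hcs' : ∀ u : F, h * xU D hD s u = xU D hD s (χ * u) * h := by
    intro u; rw [hχdef]; exact hconj s hs u
  have hconjg : c' = xU D hD s (χ / (1 - χ)) * h * (xU D hD s (χ / (1 - χ)))⁻¹ := by
    have e1 : h * xU D hD s (1 : F) = xU D hD s χ * h := by rw [hcs', mul_one]
    have e2 : xU D hD s (χ / (1 - χ)) * h * xU D hD s (-(χ / (1 - χ))) = xU D hD s χ * h := by
      rw [mul_assoc, hcs', ← mul_assoc, Cfsg.Agent.Lib.Helper17.xU_mul_xU D hD s hs]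
      congr 2
      field_simp
      ring
    rw [hc'def, Cfsg.Agent.Lib.Helper18.xU_inv, e1, e2]
  have hhN : h ^ N = 1 := Units.ext (by
    rw [hU_pow D hD h i hi ζ hζ0 hc, hN, hMat_one D hD _ (simple_lt D hD i hi)]; rfl)
  have hc'N : c' ^ N = 1 := by
    rw [hconjg, conj_pow, hhN]; group
  have hcomm : Commute c' (xU D hD r (1 : F)) := by
    show c' * xU D hD r 1 = xU D hD r 1 * c'
    have e1 : h * xU D hD r (1 : F) = xU D hD r 1 * h := by
      have := hconj r hr 1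
      rwa [hcr, zpow_zero, one_mul] at this
    have e2 : xU D hD s (1 : F) * xU D hD r 1 = xU D hD r 1 * xU D hD s 1 :=
      xU_comm D hD r s hrs.1 hrs.2.1 hrs.2.2.1 hrs.2.2.2.1 hrs.2.2.2.2 1 1
    rw [hc'def, mul_assoc, e2, ← mul_assoc, e1, mul_assoc]
  have hpow : (c' * xU D hD r (1 : F)) ^ N = xU D hD r (-1) := by
    rw [hcomm.mul_pow N, hc'N, one_mul, xU_pow D hD r hr, mul_one, hN1]
  have hx1 : xU D hD r (1 : F) ∈ K := by
    have h2' : xU D hD r (-1 : F) ∈ K := by rw [← hpow]; exact K.pow_mem ha N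
    have h3 := K.inv_mem h2'
    rwa [Cfsg.Agent.Lib.Helper18.xU_inv, neg_neg] at h3
  have hc'K : c' ∈ K := by
    have e : c' = c' * xU D hD r 1 * (xU D hD r (1 : F))⁻¹ := by group
    rw [e]; exact K.mul_mem ha (K.inv_mem hx1)
  -- the root `w`
  have hw1 : xU D hD w (1 : F) ∈ K := by
    rw [hwdef]
    exact conj_one D hD K _ (nW_rep_mem D hD K l hb k) r hr hx1
  have hwlt : w < D.nroots := hws.1
  have hwfull : ∀ t : F, xU D hD w t ∈ K := by
    refine fill_core D hD K c' hc'K ζ hζ0 hgen w (D.cartan i w) hcw (fun u => ?_) hw1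
    have e2 : xU D hD s (1 : F) * xU D hD w u = xU D hD w u * xU D hD s 1 :=
      xU_comm D hD w s hws.1 hws.2.1 hws.2.2.1 hws.2.2.2.1 hws.2.2.2.2 u 1
    rw [hc'def, mul_assoc, e2, ← mul_assoc, hconj w hwlt u, mul_assoc]
  have inv1 := run_inv2 D hD K l hb i cs1 hk1 (0, 2 ^ w)
    ⟨fun x hx => by simp at hx,
      fun x hx => by
        rw [Nat.testBit_two_pow] at hx
        have e : w = x := of_decide_eq_true hx
        subst e
        exact ⟨hwlt, hwfull⟩⟩
  refine ⟨hb, inv1, fun δ hδ hδfull y => ?_⟩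
  have e1 : h * xU D hD δ y = xU D hD δ (ζ ^ (D.cartan i δ) * y) * h := hconj δ hδ y
  have e2 : xU D hD s (-1 : F) * xU D hD δ y * xU D hD s 1 =
      c'⁻¹ * xU D hD δ (ζ ^ (D.cartan i δ) * y) * c' := by
    have e3 : xU D hD δ (ζ ^ (D.cartan i δ) * y) = h * xU D hD δ y * h⁻¹ := by
      rw [e1]; group
    rw [e3, hc'def, mul_inv_rev, Cfsg.Agent.Lib.Helper18.xU_inv]
    group
  rw [e2]
  exact K.mul_mem (K.mul_mem (K.inv_mem hc'K) (hδfull _)) hc'K

end Cfsg.Agent.Lib.Helper36.Gen2
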