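import Cfsg.Agent.Lib.Helper36.Gen2.Two

set_option autoImplicit false

/-! # Two-generation of the Chevalley group of type D4 over the field with two elements -/

namespace Cfsg.Agent.Lib.Helper36.Gen2

open Cfsg Cfsg.Lie

universe u

/-- the Coxeter word of `chevD4` -/
def d4Word : List (Fin chevD4.rank) := ([0, 1, 2, 3] : List (Fin 4))

/-- first certificate for `chevD4` over the field with two elements -/
def d4TwoCert1 : List (ℕ × ℕ × ℕ × ℕ) :=
  [(1, 1, 0, 0), (2, 18, 1, 0), (3, 6, 1, 18), (2, 19, 6, 0), (2, 14, 18, 0), (2, 22, 14, 0),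
   (3, 23, 14, 22), (2, 5, 22, 0), (3, 17, 5, 22), (2, 9, 5, 0), (3, 0, 1, 9), (3, 4, 5, 9)]

/-- second certificate for `chevD4` over the field with two elements -/
def d4TwoCert2 : List (ℕ × ℕ × ℕ × ℕ) :=
  [(1, 2, 0, 0), (3, 7, 2, 18), (3, 10, 2, 19), (3, 12, 2, 22), (3, 15, 2, 23), (3, 20, 7, 23),
   (2, 8, 2, 0), (3, 3, 5, 8), (3, 11, 8, 14), (3, 13, 8, 17), (3, 21, 8, 23), (3, 16, 11, 17)]

theorem pkgD4two : PkgTwo.{u} chevD4 :=
  pkgTwo_of_cert chevD4 (by simp) d4Word 0 0 14 2 1 (1) d4TwoCert1 d4TwoCert2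
    (by decide +kernel) (by decide +kernel) (by decide +kernel) (by decide +kernel)
    (by decide +kernel) (by decide +kernel) (by decide +kernel) (by decide +kernel)
    (by decide) (by decide +kernel) (by decide +kernel) (by decide +kernel)
    (by decide +kernel) (by decide +kernel)

end Cfsg.Agent.Lib.Helper36.Gen2
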