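import Cfsg.Agent.Lib.Helper36.Gen2.Big
import Cfsg.Agent.Lib.Helper36.Gen2.D4Two

set_option autoImplicit false

/-! # Two-generation of the Chevalley group of type D4 -/

namespace Cfsg.Agent.Lib.Helper36.Gen2

open Cfsg Cfsg.Lie

universe u

/-- first certificate for `chevD4` over fields with more than two elements -/
def d4BigCert1 : List (ℕ × ℕ × ℕ × ℕ) :=
  [(2, 13, 15, 0), (3, 17, 13, 15), (2, 2, 13, 0), (3, 4, 2, 13), (2, 8, 2, 0), (3, 0, 2, 8),
   (2, 6, 0, 0), (3, 10, 6, 15), (2, 19, 6, 0), (3, 21, 13, 19), (3, 23, 15, 21)]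

/-- second certificate for `chevD4` over fields with more than two elements -/
def d4BigCert2 : List (ℕ × ℕ × ℕ × ℕ) :=
  [(3, 1, 3, 10), (3, 5, 3, 15), (3, 11, 3, 19), (3, 16, 3, 23), (3, 14, 5, 19), (2, 18, 1, 0),
   (3, 7, 2, 18), (3, 9, 4, 18), (3, 12, 7, 17), (3, 20, 7, 23), (3, 22, 9, 23)]

theorem pkgD4big : PkgBig.{u} chevD4 :=
  pkgBig_of_cert chevD4 (by simp) d4Word 0 10 1 2 13 3 (-1) d4BigCert1 d4BigCert2
    (by decide +kernel) (by decide +kernel) (by decide +kernel) (by decide +kernel)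
    (by decide +kernel) (by decide +kernel) (by decide +kernel) (by decide +kernel)
    (by decide +kernel) (by decide +kernel) (by decide +kernel) (by decide +kernel)
    (by decide) (by decide +kernel) (by decide) (by decide)
    (by decide +kernel) (by decide +kernel)

end Cfsg.Agent.Lib.Helper36.Gen2
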