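import Cfsg.Agent.Lib.Helper36.Gen2.Tools

set_option autoImplicit false

/-! # Two-generation of the Chevalley group of type E6 (generated certificate) -/

namespace Cfsg.Agent.Lib.Helper36.Gen2

open Cfsg Cfsg.Lie

universe u

/-- the Coxeter word of `chevE6` -/
def e6Word : List (Fin chevE6.rank) := ([0, 1, 2, 3, 4, 5] : List (Fin 6))

/-- the certificate for `chevE6` -/
def e6Cert : List (ℕ × ℕ × ℕ × ℕ) :=
  [(0, 62, 33, 0), (1, 62, 0, 0), (2, 68, 62, 0), (2, 53, 68, 0), (2, 66, 53, 0), (2, 45, 66, 0),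
   (3, 69, 45, 62), (2, 14, 45, 0), (3, 48, 14, 62), (3, 54, 14, 68), (3, 55, 14, 69),
   (3, 71, 48, 68), (2, 21, 14, 0), (3, 40, 21, 53), (3, 41, 21, 54), (3, 60, 21, 68),
   (3, 70, 40, 68), (2, 7, 21, 0), (3, 10, 7, 40), (3, 13, 7, 48), (3, 15, 7, 53),
   (3, 32, 7, 62), (3, 38, 7, 66), (3, 52, 7, 71), (3, 37, 10, 62), (3, 51, 15, 62),
   (2, 2, 7, 0), (3, 1, 2, 32), (3, 3, 2, 37), (3, 4, 2, 38), (3, 9, 2, 45), (3, 11, 2, 51),
   (3, 12, 2, 52), (3, 20, 2, 60), (3, 26, 2, 62), (3, 29, 2, 66), (3, 34, 2, 68),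
   (3, 39, 2, 70), (3, 47, 2, 71), (3, 28, 4, 62), (3, 36, 4, 68), (3, 49, 4, 71),
   (3, 50, 11, 68), (3, 46, 12, 62), (3, 18, 20, 32), (3, 27, 20, 46), (3, 56, 20, 62),
   (3, 65, 20, 71), (3, 61, 26, 68), (3, 64, 26, 70), (3, 63, 27, 69), (3, 31, 32, 34),
   (2, 16, 1, 0), (3, 0, 10, 16), (3, 5, 15, 16), (3, 17, 16, 37), (3, 19, 16, 40),
   (3, 23, 16, 45), (3, 30, 16, 51), (3, 33, 16, 53), (3, 57, 16, 69), (3, 58, 16, 70),
   (3, 6, 17, 15), (3, 24, 17, 45), (3, 35, 17, 53), (3, 59, 17, 70), (3, 8, 19, 15),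
   (3, 25, 19, 45), (3, 22, 23, 35), (3, 42, 23, 51), (3, 43, 23, 53), (3, 44, 24, 53),
   (3, 67, 30, 70)]

set_option maxRecDepth 100000 in
theorem e6_run :
    (run chevE6 e6Word 0 e6Cert (2 ^ 33, 0)).2 = 2 ^ chevE6.nroots - 1 := by
  decide +kernel

theorem pkgE6 : PkgE6.{u} :=
  pkgAll_of_cert chevE6 (by simp) e6Word 0 33 e6Cert (by decide +kernel)
    (by decide +kernel) (by decide +kernel) e6_run

end Cfsg.Agent.Lib.Helper36.Gen2
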