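import Cfsg.Agent.Lib.Helper36.Gen2.Core
import Cfsg.Agent.Lib.Helper80.Gen2.G2Char3

set_option autoImplicit false

/-!
# Two-generation of the Chevalley group of type G2 over fields with more than two elements
(`a = h_b(ζ) x_{3a+2b}(1) x_{2a+b}(1)`, `b` a Coxeter element; the characteristic 3 step is
helper80's `g2_char3`)
-/

namespace Cfsg.Agent.Lib.Helper36.Gen2

open Cfsg Cfsg.Lie Cfsg.Agent.Lib.Helper18

universe u

/-- the Coxeter word of `chevG2` -/
def g2Word : List (Fin chevG2.rank) := ([0, 1] : List (Fin 2))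

/-- the short roots: conjugations by the Coxeter element -/
def g2Cert1 : List (ℕ × ℕ × ℕ × ℕ) :=
  [(2, 4, 8, 0), (2, 2, 4, 0), (2, 3, 2, 0), (2, 7, 3, 0), (2, 9, 7, 0)]

/-- the long roots: conjugations by the Coxeter element -/
def g2Cert2 : List (ℕ × ℕ × ℕ × ℕ) :=
  [(2, 11, 10, 0), (2, 6, 11, 0), (2, 1, 6, 0), (2, 0, 1, 0), (2, 5, 0, 0)]

theorem g2_hD : chevG2 ∈ [chevG2, chevB2, chevD4, chevF4, chevE6, chevE7, chevE8] :=
  List.mem_cons_self

theorem g2_w : wordF chevG2 (List.replicate 1 g2Word).flatten 9 = 8 := by decide +kernel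

theorem g2_run1 : run chevG2 g2Word 1 g2Cert1 (0, 2 ^ 8) = (0, 924) := by decide +kernel

theorem g2_run2 :
    (run chevG2 g2Word 1 g2Cert2 (0, 924 ||| 2 ^ 10)).2 = 2 ^ chevG2.nroots - 1 := by
  decide +kernel

theorem pkgG2b : PkgG2.{u} := by
  intro F _ _ hF2
  obtain ⟨a, b, ha, hb, hK⟩ := big_core chevG2 g2_hD g2Word 1 9 11 1 g2Cert1
    (by decide +kernel) (by decide +kernel) (by decide +kernel) (by decide +kernel)
    (by decide +kernel) (by decide +kernel) (by decide +kernel) (by decide +kernel)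
    (by decide) hF2
  refine ⟨a, b, ha, hb, ?_⟩
  obtain ⟨K, hKdef⟩ : ∃ K : Subgroup (GL chevG2.Idx F),
      K = Subgroup.closure ({a, b} : Set (GL chevG2.Idx F)) := ⟨_, rfl⟩
  rw [← hKdef]
  obtain ⟨hbK, inv1, htw⟩ := hK K hKdef
  rw [g2_w, g2_run1] at inv1
  have f : ∀ w, Nat.testBit 924 w = true → ∀ t : F, xU chevG2 g2_hD w t ∈ K :=
    fun w hw => (inv1.2 w hw).2
  have f3 := f 3 (by decide)
  have f7 := f 7 (by decide)
  have f8 := f 8 (by decide)
  have f9 := f 9 (by decide)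
  have f10 : ∀ t : F, xU chevG2 g2_hD 10 t ∈ K := by
    by_cases h3 : (3 : F) = 0
    · exact Cfsg.Agent.Lib.Helper80.Gen2.g2_char3 K h3 hF2 f3 f7 f8 f9
        (fun s => htw 3 (by decide) f3 s)
    · exact sum_full chevG2 g2_hD K 9 7 10 (-3) (by decide) (by decide) (by decide) (by decide)
        (by decide +kernel) (by push_cast; simpa using h3) f9 f7
  apply le_of_full chevG2 g2_hD K
  intro x hx t
  have inv2 := run_inv2 chevG2 g2_hD K g2Word hbK 1 g2Cert2 (by decide) (0, 924 ||| 2 ^ 10)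
    ⟨fun y hy => by simp at hy, fun y hy => by
      rcases testBit_lor_pow _ _ _ hy with hy | rfl
      · exact inv1.2 y hy
      · exact ⟨by decide, f10⟩⟩
  exact (inv2.2 x (by rw [g2_run2, Nat.testBit_two_pow_sub_one]; simpa using hx)).2 t

end Cfsg.Agent.Lib.Helper36.Gen2
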