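import Cfsg.Agent.Lib.Helper36.Gen2.Defs

set_option autoImplicit false

/-!
# Two-generation of the Chevalley groups: assembly of the packages
-/

namespace Cfsg.Agent.Lib.Helper36.Gen2

open Cfsg Cfsg.Lie

universe u

/-- two-generation over the field with two elements, inside the general linear group -/
def PkgTwo (D : ChevalleyDatum) : Prop :=
  ∀ (F : Type u) [Field F] [Finite F], (∀ x : F, x = 0 ∨ x = 1) →
    ∃ a b : GL D.Idx F, a ∈ D.group F ∧ b ∈ D.group F ∧
      D.group F ≤ Subgroup.closure ({a, b} : Set (GL D.Idx F))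

theorem glue {G : Type*} [Group G] (H : Subgroup G) (a b : G) (ha : a ∈ H) (hb : b ∈ H)
    (hle : H ≤ Subgroup.closure ({a, b} : Set G)) :
    Subgroup.closure ({⟨a, ha⟩, ⟨b, hb⟩} : Set H) = ⊤ := by
  rw [eq_top_iff]
  rintro x -
  have h1 : (x : G) ∈ Subgroup.closure ({a, b} : Set G) := hle x.2
  have h2 : Subgroup.map H.subtype (Subgroup.closure ({⟨a, ha⟩, ⟨b, hb⟩} : Set H)) =
      Subgroup.closure ({a, b} : Set G) := by
    rw [MonoidHom.map_closure]
    congr 1
    ext g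
    simp [Set.image_insert_eq]
  rw [← h2] at h1
  obtain ⟨y, hy, hyx⟩ := h1
  have e : y = x := Subtype.ext hyx
  rwa [e] at hy

theorem main_of (hG2 : PkgG2.{u}) (hB2 : PkgB2.{u}) (hD4b : PkgBig.{u} chevD4)
    (hD4t : PkgTwo.{u} chevD4) (hF4 : PkgF4.{u}) (hE6 : PkgE6.{u}) (hE7 : PkgE7.{u})
    (hE8 : PkgE8.{u}) {F : Type u} [Field F] [Finite F] (D : ChevalleyDatum)
    (hD : D ∈ [chevG2, chevB2, chevD4, chevF4, chevE6, chevE7, chevE8])
    (hF : D ∈ [chevB2, chevG2] → ∃ x : F, x ≠ 0 ∧ x ≠ 1) :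
    ∃ a b : ↥(D.group F), Subgroup.closure ({a, b} : Set ↥(D.group F)) = ⊤ := by
  have key : ∃ a b : GL D.Idx F, a ∈ D.group F ∧ b ∈ D.group F ∧
      D.group F ≤ Subgroup.closure ({a, b} : Set (GL D.Idx F)) := by
    simp only [List.mem_cons, List.not_mem_nil, or_false] at hD
    rcases hD with rfl | rfl | rfl | rfl | rfl | rfl | rfl
    · exact hG2 F (hF (by simp))
    · exact hB2 F (hF (by simp))
    · by_cases h2 : ∃ x : F, x ≠ 0 ∧ x ≠ 1
      · exact hD4b F h2
      · refine hD4t F (fun x => ?_)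
        by_cases h0 : x = 0
        · exact Or.inl h0
        · right
          by_contra h1
          exact h2 ⟨x, h0, h1⟩
    · exact hF4 F
    · exact hE6 F
    · exact hE7 F
    · exact hE8 F
  obtain ⟨a, b, ha, hb, hle⟩ := key
  exact ⟨⟨a, ha⟩, ⟨b, hb⟩, glue _ a b ha hb hle⟩

end Cfsg.Agent.Lib.Helper36.Gen2
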