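import Cfsg.Agent.Lib.Helper36.Gen2.Defs
import Cfsg.Agent.Lib.Helper36.StbB
import Cfsg.Agent.Lib.Helper17.ChevPerf
import Cfsg.Agent.S1032

set_option autoImplicit false

/-!
# Two-generation of the Chevalley groups: the certificate machine

A subgroup `K` containing a Coxeter element `n_l`, a torus element `h_i(ζ)` and one root element
`x_r(1)` contains every root subgroup, as soon as a certificate (conjugations by `n_l`, torus
fill-ups, single-term commutators) reaches every root.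
-/

namespace Cfsg.Agent.Lib.Helper36.Gen2

open Cfsg Cfsg.Lie Cfsg.Agent.Lib.Helper18

universe u

section gen

variable {F : Type*} [Field F] (D : ChevalleyDatum)
  (hD : D ∈ [chevG2, chevB2, chevD4, chevF4, chevE6, chevE7, chevE8])

theorem le_of_full (K : Subgroup (GL D.Idx F))
    (h : ∀ w < D.nroots, ∀ t : F, xU D hD w t ∈ K) : D.group F ≤ K := by
  unfold ChevalleyDatum.group
  rw [Subgroup.closure_le]
  rintro g ⟨r, t, hg⟩
  have : g = xU D hD r.1 t := Units.ext (by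
    rw [hg, coe_xU]; simp [ChevalleyDatum.x, r.2])
  rw [this]
  exact h r.1 r.2 t

theorem conj_full (K : Subgroup (GL D.Idx F)) (l : List (Fin D.rank))
    (hb : nW (F := F) D hD l ∈ K) (w : ℕ) (hw : w < D.nroots)
    (hf : ∀ t : F, xU D hD w t ∈ K) (t : F) : xU D hD (wordF D l w) t ∈ K := by
  obtain ⟨ε, hε⟩ := word_smap (F := F) D hD l
  have e := hε.conjU hD w hw (ε w * t)
  have e2 : ε w * (ε w * t) = t := by
    rcases hε.sign w hw with h1 | h1 <;> rw [h1] <;> ring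
  rw [e2] at e
  have e3 : xU D hD (wordF D l w) t = nW D hD l * xU D hD w (ε w * t) * (nW D hD l)⁻¹ := by
    show _ = (l.map (Cfsg.Agent.Lib.Helper36.nU (F := F) D hD)).prod * _ * _
    rw [e]; group
  rw [e3]
  exact K.mul_mem (K.mul_mem hb (hf _)) (K.inv_mem hb)

theorem conj_one (K : Subgroup (GL D.Idx F)) (l : List (Fin D.rank))
    (hb : nW (F := F) D hD l ∈ K) (w : ℕ) (hw : w < D.nroots)
    (h1 : xU D hD w (1 : F) ∈ K) : xU D hD (wordF D l w) (1 : F) ∈ K := by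
  obtain ⟨ε, hε⟩ := word_smap (F := F) D hD l
  have e := hε.conjU hD w hw 1
  have e3 : xU D hD (wordF D l w) (ε w * 1) = nW D hD l * xU D hD w 1 * (nW D hD l)⁻¹ := by
    show _ = (l.map (Cfsg.Agent.Lib.Helper36.nU (F := F) D hD)).prod * _ * _
    rw [e]; group
  have h2 : xU D hD (wordF D l w) (ε w * 1) ∈ K := by
    rw [e3]; exact K.mul_mem (K.mul_mem hb h1) (K.inv_mem hb)
  rcases hε.sign w hw with h3 | h3
  · rwa [h3, one_mul] at h2
  · rw [h3] at h2
    have h4 := K.inv_mem h2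
    rwa [Cfsg.Agent.Lib.Helper18.xU_inv, show -(-1 * (1 : F)) = 1 by ring] at h4

theorem fill (K : Subgroup (GL D.Idx F)) (h : GL D.Idx F) (hh : h ∈ K) (i : ℕ) (hi : i < D.rank)
    (ζ : F) (hζ0 : ζ ≠ 0) (hc : (h : Matrix D.Idx D.Idx F) = D.hMat F (D.simple i) ζ)
    (hgen : ∀ t : F, t ≠ 0 → ∃ n : ℕ, t = ζ ^ n)
    (w : ℕ) (hw : w < D.nroots) (hcar : D.cartan i w = 1 ∨ D.cartan i w = -1)
    (h1 : xU D hD w (1 : F) ∈ K) (t : F) : xU D hD w t ∈ K := by
  have hconj : ∀ u : F, h * xU D hD w u = xU D hD w (ζ ^ (D.cartan i w) * u) * h := fun u =>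
    Units.ext (by
      simp only [Units.val_mul, coe_xU, hc]
      exact Cfsg.Agent.S1032.result D hD i w hi hw ζ hζ0 u)
  have hmul : ∀ u : F, xU D hD w u ∈ K → xU D hD w (ζ * u) ∈ K := by
    intro u hu
    rcases hcar with hc1 | hc1
    · have e := hconj u
      rw [hc1, zpow_one] at e
      have e' : xU D hD w (ζ * u) = h * xU D hD w u * h⁻¹ := by rw [e]; group
      rw [e']; exact K.mul_mem (K.mul_mem hh hu) (K.inv_mem hh)
    · have e := hconj (ζ * u)
      rw [hc1, zpow_neg_one, ← mul_assoc, inv_mul_cancel₀ hζ0, one_mul] at e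
      have e' : xU D hD w (ζ * u) = h⁻¹ * (xU D hD w u * h) := by rw [← e]; group
      rw [e']; exact K.mul_mem (K.inv_mem hh) (K.mul_mem hu hh)
  have hpow : ∀ n : ℕ, xU D hD w (ζ ^ n) ∈ K := by
    intro n
    induction n with
    | zero => simpa using h1
    | succ n ih => rw [pow_succ']; exact hmul _ ih
  by_cases ht : t = 0
  · rw [ht, Cfsg.Agent.Lib.Helper18.xU_zero]; exact K.one_mem
  · obtain ⟨n, rfl⟩ := hgen t ht
    exact hpow n

theorem sum_full (K : Subgroup (GL D.Idx F)) (r s w : ℕ) (ε : ℤ) (hr : r < D.nroots)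
    (hs : s < D.nroots) (hsr : s ≠ r) (hsn : s ≠ D.neg r)
    (hct : D.commTerms r s = [(w, ε, 1, 1)]) (hε : ((ε : ℤ) : F) ≠ 0)
    (hfr : ∀ t : F, xU D hD r t ∈ K) (hfs : ∀ t : F, xU D hD s t ∈ K) (c : F) :
    xU D hD w c ∈ K := by
  have hcf := Cfsg.Agent.Lib.Helper17.cf_of_mem (F := F) D hD r s hr hs hsr hsn 1 (-(c / (ε : F)))
  have hw : D.wordMat F (D.commWord F r s 1 (-(c / (ε : F)))) = D.x F w c := by
    unfold ChevalleyDatum.commWord ChevalleyDatum.wordMat
    rw [hct]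
    simp only [List.map_cons, List.map_nil, List.prod_cons, List.prod_nil, mul_one, pow_one]
    congr 1
    field_simp
  rw [hw] at hcf
  have hU : xU D hD s (-(c / (ε : F))) * xU D hD r 1 =
      xU D hD r 1 * xU D hD s (-(c / (ε : F))) * xU D hD w c :=
    Units.ext (by simpa only [Units.val_mul, coe_xU] using hcf)
  have h2 : xU D hD w c = (xU D hD r 1 * xU D hD s (-(c / (ε : F))))⁻¹ *
      (xU D hD s (-(c / (ε : F))) * xU D hD r 1) := by
    rw [hU]; group
  rw [h2]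
  exact K.mul_mem (K.inv_mem (K.mul_mem (hfr _) (hfs _))) (K.mul_mem (hfs _) (hfr _))

include hD in
theorem hU_pow (h : GL D.Idx F) (i : ℕ) (hi : i < D.rank) (ζ : F) (hζ0 : ζ ≠ 0)
    (hc : (h : Matrix D.Idx D.Idx F) = D.hMat F (D.simple i) ζ) (n : ℕ) :
    ((h ^ n : GL D.Idx F) : Matrix D.Idx D.Idx F) = D.hMat F (D.simple i) (ζ ^ n) := by
  induction n with
  | zero =>
    rw [pow_zero, pow_zero, Units.val_one, hMat_one D hD _ (simple_lt D hD i hi)]
  | succ n ih =>
    rw [pow_succ, Units.val_mul, ih, hc, pow_succ,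
      hMat_mul D hD _ (simple_lt D hD i hi) _ _ (pow_ne_zero n hζ0) hζ0]

theorem xU_pow (r : ℕ) (hr : r < D.nroots) (t : F) (n : ℕ) :
    (xU D hD r t) ^ n = xU D hD r (n * t) := by
  induction n with
  | zero => simp [Cfsg.Agent.Lib.Helper18.xU_zero]
  | succ n ih =>
    rw [pow_succ, ih, Cfsg.Agent.Lib.Helper17.xU_mul_xU D hD r hr]
    congr 1
    push_cast
    ring

end gen

theorem exists_gen (F : Type*) [Field F] [Finite F] :
    ∃ ζ : F, ζ ≠ 0 ∧ (∀ t : F, t ≠ 0 → ∃ n : ℕ, t = ζ ^ n) ∧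
      ∃ N : ℕ, ζ ^ N = 1 ∧ (N : F) = -1 := by
  classical
  have := Fintype.ofFinite F
  obtain ⟨g, hg⟩ := IsCyclic.exists_generator (α := Fˣ)
  refine ⟨(g : F), g.ne_zero, fun t ht => ?_, Nat.card Fˣ, ?_, ?_⟩
  · have h1 := hg (Units.mk0 t ht)
    rw [← mem_powers_iff_mem_zpowers] at h1
    obtain ⟨n, hn⟩ := h1
    refine ⟨n, ?_⟩
    have h2 := congrArg (fun u : Fˣ => (u : F)) hn
    simpa using h2.symm
  · have h1 := pow_card_eq_one' (x := g)
    rw [← Units.val_pow_eq_pow_val, h1, Units.val_one]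
  · rw [Nat.card_units, Nat.card_eq_fintype_card, Nat.cast_sub Fintype.card_pos,
      FiniteField.cast_card_eq_zero]
    simp

/-! ### the machine -/

theorem testBit_lor_pow (m w v : ℕ) (h : (m ||| 2 ^ w).testBit v = true) :
    m.testBit v = true ∨ v = w := by
  rw [Nat.testBit_or, Bool.or_eq_true] at h
  rcases h with h | h
  · exact Or.inl h
  · right
    rw [Nat.testBit_two_pow] at h
    exact (of_decide_eq_true h).symm

/-- one step of the certificate machine; the state is a pair of bit masks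
(roots `w` with `x_w(1) ∈ K`, roots `w` with `X_w ⊆ K`); a step is `(kind, w, r, s)`:
kind `0`: `w = n_l(r)` on the first mask, kind `1`: torus fill of `w`, kind `2`: `w = n_l(r)` on
the second mask, other kinds: `w = r + s` with a single commutator term -/
noncomputable def step (D : ChevalleyDatum) (l : List (Fin D.rank)) (i : ℕ) (st : ℕ × ℕ)
    (c : ℕ × ℕ × ℕ × ℕ) : ℕ × ℕ :=
  cond (Nat.beq c.1 0)
    (cond (and (Nat.testBit st.1 c.2.2.1) (Nat.beq (wordF D l c.2.2.1) c.2.1))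
      (st.1 ||| 2 ^ c.2.1, st.2) st)
  (cond (Nat.beq c.1 1)
    (cond (and (Nat.testBit st.1 c.2.1)
        (or (Cfsg.Agent.Lib.Helper17.zbeq (D.cartan i c.2.1) 1)
          (Cfsg.Agent.Lib.Helper17.zbeq (D.cartan i c.2.1) (-1))))
      (st.1, st.2 ||| 2 ^ c.2.1) st)
  (cond (Nat.beq c.1 2)
    (cond (and (Nat.testBit st.2 c.2.2.1) (Nat.beq (wordF D l c.2.2.1) c.2.1))
      (st.1, st.2 ||| 2 ^ c.2.1) st)
    (cond (and (Nat.testBit st.2 c.2.2.1) (and (Nat.testBit st.2 c.2.2.2)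
        (and (Nat.blt c.2.1 D.nroots)
          (Cfsg.Agent.Lib.Helper17.oneT D c.2.1 (c.2.2.1, c.2.2.2)))))
      (st.1, st.2 ||| 2 ^ c.2.1) st)))

/-- the machine -/
noncomputable def run (D : ChevalleyDatum) (l : List (Fin D.rank)) (i : ℕ)
    (cs : List (ℕ × ℕ × ℕ × ℕ)) (st : ℕ × ℕ) : ℕ × ℕ :=
  cs.foldl (step D l i) st

section inv

variable {F : Type*} [Field F] (D : ChevalleyDatum)
  (hD : D ∈ [chevG2, chevB2, chevD4, chevF4, chevE6, chevE7, chevE8])

/-- the invariant of the machine -/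
def Inv (K : Subgroup (GL D.Idx F)) (st : ℕ × ℕ) : Prop :=
  (∀ w, st.1.testBit w = true → w < D.nroots ∧ xU D hD w (1 : F) ∈ K) ∧
  (∀ w, st.2.testBit w = true → w < D.nroots ∧ ∀ t : F, xU D hD w t ∈ K)

theorem step_inv (K : Subgroup (GL D.Idx F)) (l : List (Fin D.rank))
    (hb : nW (F := F) D hD l ∈ K) (h : GL D.Idx F) (hh : h ∈ K) (i : ℕ) (hi : i < D.rank)
    (ζ : F) (hζ0 : ζ ≠ 0) (hc : (h : Matrix D.Idx D.Idx F) = D.hMat F (D.simple i) ζ)
    (hgen : ∀ t : F, t ≠ 0 → ∃ n : ℕ, t = ζ ^ n) (st : ℕ × ℕ) (c : ℕ × ℕ × ℕ × ℕ)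
    (hst : Inv D hD K st) : Inv D hD K (step D l i st c) := by
  have htab := Cfsg.Agent.Lib.Helper17.tabOK_of_mem D hD
  unfold step
  rcases h0 : Nat.beq c.1 0 with _ | _
  · rcases h1 : Nat.beq c.1 1 with _ | _
    · rcases h2 : Nat.beq c.1 2 with _ | _
      · simp only [cond_false]
        rcases hb4 : (and (Nat.testBit st.2 c.2.2.1) (and (Nat.testBit st.2 c.2.2.2)
          (and (Nat.blt c.2.1 D.nroots)
            (Cfsg.Agent.Lib.Helper17.oneT D c.2.1 (c.2.2.1, c.2.2.2))))) with _ | _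
        · exact hst
        · simp only [cond_true]
          simp only [Bool.and_eq_true, Nat.blt_eq] at hb4
          obtain ⟨hr, hs, hwlt, ho⟩ := hb4
          obtain ⟨h1', h2', h3, h4, ε, hε, hct⟩ :=
            Cfsg.Agent.Lib.Helper17.oneT_spec htab _ _ ho
          refine ⟨hst.1, fun v hv => ?_⟩
          rcases testBit_lor_pow _ _ _ hv with hv | rfl
          · exact hst.2 v hv
          · exact ⟨hwlt, fun t => sum_full D hD K _ _ _ ε h1' h2' h3 h4 hct
              (by rcases hε with rfl | rfl <;> simp) (hst.2 _ hr).2 (hst.2 _ hs).2 t⟩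
      · simp only [cond_false, cond_true]
        rcases hb4 : (and (Nat.testBit st.2 c.2.2.1) (Nat.beq (wordF D l c.2.2.1) c.2.1))
          with _ | _
        · exact hst
        · simp only [cond_true]
          simp only [Bool.and_eq_true] at hb4
          obtain ⟨hr, hw⟩ := hb4
          have hw' : wordF D l c.2.2.1 = c.2.1 := Nat.eq_of_beq_eq_true hw
          refine ⟨hst.1, fun v hv => ?_⟩
          rcases testBit_lor_pow _ _ _ hv with hv | rfl
          · exact hst.2 v hv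
          · rw [← hw']
            exact ⟨wordF_lt D hD l _ (hst.2 _ hr).1,
              fun t => conj_full D hD K l hb _ (hst.2 _ hr).1 (hst.2 _ hr).2 t⟩
    · simp only [cond_false, cond_true]
      rcases hb4 : (and (Nat.testBit st.1 c.2.1)
        (or (Cfsg.Agent.Lib.Helper17.zbeq (D.cartan i c.2.1) 1)
          (Cfsg.Agent.Lib.Helper17.zbeq (D.cartan i c.2.1) (-1)))) with _ | _
      · exact hst
      · simp only [cond_true]
        simp only [Bool.and_eq_true, Bool.or_eq_true] at hb4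
        obtain ⟨hr, hcar⟩ := hb4
        have hcar' : D.cartan i c.2.1 = 1 ∨ D.cartan i c.2.1 = -1 :=
          hcar.imp (Cfsg.Agent.Lib.Helper17.zbeq_spec _ _) (Cfsg.Agent.Lib.Helper17.zbeq_spec _ _)
        refine ⟨hst.1, fun v hv => ?_⟩
        rcases testBit_lor_pow _ _ _ hv with hv | rfl
        · exact hst.2 v hv
        · exact ⟨(hst.1 _ hr).1, fun t => fill D hD K h hh i hi ζ hζ0 hc hgen _ (hst.1 _ hr).1
            hcar' (hst.1 _ hr).2 t⟩
  · simp only [cond_true]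
    rcases hb4 : (and (Nat.testBit st.1 c.2.2.1) (Nat.beq (wordF D l c.2.2.1) c.2.1)) with _ | _
    · exact hst
    · simp only [cond_true]
      simp only [Bool.and_eq_true] at hb4
      obtain ⟨hr, hw⟩ := hb4
      have hw' : wordF D l c.2.2.1 = c.2.1 := Nat.eq_of_beq_eq_true hw
      refine ⟨fun v hv => ?_, hst.2⟩
      rcases testBit_lor_pow _ _ _ hv with hv | rfl
      · exact hst.1 v hv
      · rw [← hw']
        exact ⟨wordF_lt D hD l _ (hst.1 _ hr).1, conj_one D hD K l hb _ (hst.1 _ hr).1 (hst.1 _ hr).2⟩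

theorem run_inv (K : Subgroup (GL D.Idx F)) (l : List (Fin D.rank))
    (hb : nW (F := F) D hD l ∈ K) (h : GL D.Idx F) (hh : h ∈ K) (i : ℕ) (hi : i < D.rank)
    (ζ : F) (hζ0 : ζ ≠ 0) (hc : (h : Matrix D.Idx D.Idx F) = D.hMat F (D.simple i) ζ)
    (hgen : ∀ t : F, t ≠ 0 → ∃ n : ℕ, t = ζ ^ n) (cs : List (ℕ × ℕ × ℕ × ℕ)) (st : ℕ × ℕ)
    (hst : Inv D hD K st) : Inv D hD K (run D l i cs st) := by
  induction cs generalizing st with
  | nil => exact hst
  | cons c cs ih =>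
    exact ih _ (step_inv D hD K l hb h hh i hi ζ hζ0 hc hgen st c hst)

theorem full_of_run (K : Subgroup (GL D.Idx F)) (l : List (Fin D.rank))
    (hb : nW (F := F) D hD l ∈ K) (h : GL D.Idx F) (hh : h ∈ K) (i : ℕ) (hi : i < D.rank)
    (ζ : F) (hζ0 : ζ ≠ 0) (hc : (h : Matrix D.Idx D.Idx F) = D.hMat F (D.simple i) ζ)
    (hgen : ∀ t : F, t ≠ 0 → ∃ n : ℕ, t = ζ ^ n) (cs : List (ℕ × ℕ × ℕ × ℕ)) (st : ℕ × ℕ)
    (hst : Inv D hD K st) (hrun : (run D l i cs st).2 = 2 ^ D.nroots - 1) :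
    ∀ w < D.nroots, ∀ t : F, xU D hD w t ∈ K := by
  intro w hw t
  have h1 := (run_inv D hD K l hb h hh i hi ζ hζ0 hc hgen cs st hst).2 w
    (by rw [hrun, Nat.testBit_two_pow_sub_one]; simpa using hw)
  exact h1.2 t

end inv

/-- two-generation from a certificate: `a = h_i(ζ) x_{r₀}(1)` and `b = n_l` -/
theorem pkgAll_of_cert (D : ChevalleyDatum)
    (hD : D ∈ [chevG2, chevB2, chevD4, chevF4, chevE6, chevE7, chevE8])
    (l : List (Fin D.rank)) (i r0 : ℕ) (cs : List (ℕ × ℕ × ℕ × ℕ)) (hi : i < D.rank)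
    (hr0 : r0 < D.nroots) (hcar : D.cartan i r0 = 0)
    (hrun : (run D l i cs (2 ^ r0, 0)).2 = 2 ^ D.nroots - 1) : PkgAll.{u} D := by
  intro F _ _
  obtain ⟨ζ, hζ0, hgen, N, hN, hN1⟩ := exists_gen F
  obtain ⟨h, hdef⟩ : ∃ h : GL D.Idx F, h = wordU D hD (D.hWord (D.simple i) ζ) := ⟨_, rfl⟩
  have hc : ((h : GL D.Idx F) : Matrix D.Idx D.Idx F) = D.hMat F (D.simple i) ζ := by
    rw [hdef, coe_wordU]; rfl
  have hhG : h ∈ D.group F := by rw [hdef]; exact wordU_mem_group D hD _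
  refine ⟨h * xU D hD r0 1, nW D hD l, (D.group F).mul_mem hhG (xU_mem_group D hD _ _),
    nW_mem_group D hD l, ?_⟩
  obtain ⟨K, hK⟩ : ∃ K : Subgroup (GL D.Idx F),
      K = Subgroup.closure ({h * xU D hD r0 1, nW D hD l} : Set (GL D.Idx F)) := ⟨_, rfl⟩
  rw [← hK]
  have ha : h * xU D hD r0 1 ∈ K := by rw [hK]; exact Subgroup.subset_closure (by simp)
  have hb : nW (F := F) D hD l ∈ K := by rw [hK]; exact Subgroup.subset_closure (by simp)
  have hcomm : h * xU D hD r0 (1 : F) = xU D hD r0 1 * h := Units.ext (by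
    simp only [Units.val_mul, coe_xU, hc]
    have h1 := Cfsg.Agent.S1032.result D hD i r0 hi hr0 ζ hζ0 (1 : F)
    rwa [hcar, zpow_zero, one_mul] at h1)
  have hpow : (h * xU D hD r0 (1 : F)) ^ N = xU D hD r0 (-1) := by
    have hcm : Commute h (xU D hD r0 (1 : F)) := hcomm
    rw [hcm.mul_pow N]
    have h1 : h ^ N = 1 := Units.ext (by
      rw [hU_pow D hD h i hi ζ hζ0 hc, hN, hMat_one D hD _ (simple_lt D hD i hi)]; rfl)
    rw [h1, one_mul, xU_pow D hD r0 hr0, mul_one, hN1]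
  have hx1 : xU D hD r0 (1 : F) ∈ K := by
    have h2 : xU D hD r0 (-1 : F) ∈ K := by rw [← hpow]; exact K.pow_mem ha N
    have h3 := K.inv_mem h2
    rwa [Cfsg.Agent.Lib.Helper18.xU_inv, neg_neg] at h3
  have hhK : h ∈ K := by
    have e : h = h * xU D hD r0 1 * (xU D hD r0 (1 : F))⁻¹ := by group
    rw [e]; exact K.mul_mem ha (K.inv_mem hx1)
  apply le_of_full D hD K
  refine full_of_run D hD K l hb h hhK i hi ζ hζ0 hc hgen cs (2 ^ r0, 0) ?_ hrun
  refine ⟨fun w hw => ?_, fun w hw => ?_⟩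
  · rw [Nat.testBit_two_pow] at hw
    have e : r0 = w := of_decide_eq_true hw
    subst e
    exact ⟨hr0, hx1⟩
  · simp at hw

end Cfsg.Agent.Lib.Helper36.Gen2
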