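import Cfsg.Agent.Lib.Helper36.Gen2.Tools
import Cfsg.Agent.Lib.Helper36.Gen2.Main

set_option autoImplicit false

/-!
# Two-generation over the field with two elements: `a = x_r(1) x_s(1) x_t(1)` with
`a² = x_{r+s}(1)`, and `b = n_l`
-/

namespace Cfsg.Agent.Lib.Helper36.Gen2

open Cfsg Cfsg.Lie Cfsg.Agent.Lib.Helper18

universe u

theorem sq_trick {G : Type*} [Group G] (A B C W : G) (hCA : C * A = A * C) (hCB : C * B = B * C)
    (hBA : B * A = A * B * W) (hWB : W * B = B * W) (hA : A * A = 1) (hB : B * B = 1)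
    (hC : C * C = 1) : (A * B * C) * (A * B * C) = W := by
  calc (A * B * C) * (A * B * C) = A * B * (C * A) * B * C := by group
    _ = A * B * (A * C) * B * C := by rw [hCA]
    _ = A * (B * A) * (C * B) * C := by group
    _ = A * (A * B * W) * (B * C) * C := by rw [hBA, hCB]
    _ = (A * A) * B * (W * B) * (C * C) := by group
    _ = 1 * B * (B * W) * 1 := by rw [hA, hWB, hC]
    _ = (B * B) * W := by group
    _ = W := by rw [hB, one_mul]

section

variable {F : Type*} [Field F] (D : ChevalleyDatum)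
  (hD : D ∈ [chevG2, chevB2, chevD4, chevF4, chevE6, chevE7, chevE8])

/-- root elements with an empty commutator formula commute -/
theorem xU_comm (r s : ℕ) (hr : r < D.nroots) (hs : s < D.nroots) (hsr : s ≠ r)
    (hsn : s ≠ D.neg r) (hct : D.commTerms r s = []) (t u : F) :
    xU D hD s u * xU D hD r t = xU D hD r t * xU D hD s u := by
  have hcf := Cfsg.Agent.Lib.Helper17.cf_of_mem (F := F) D hD r s hr hs hsr hsn t u
  have hw : D.wordMat F (D.commWord F r s t u) = 1 := by
    unfold ChevalleyDatum.commWord ChevalleyDatum.wordMat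
    rw [hct]
    simp
  rw [hw, mul_one] at hcf
  exact Units.ext (by simpa only [Units.val_mul, coe_xU] using hcf)

/-- the single-term commutator formula -/
theorem xU_cf1 (r s w : ℕ) (ε : ℤ) (hr : r < D.nroots) (hs : s < D.nroots) (hsr : s ≠ r)
    (hsn : s ≠ D.neg r) (hct : D.commTerms r s = [(w, ε, 1, 1)]) (t u : F) :
    xU D hD s u * xU D hD r t = xU D hD r t * xU D hD s u * xU D hD w ((ε : F) * (-t) * u) := by
  have hcf := Cfsg.Agent.Lib.Helper17.cf_of_mem (F := F) D hD r s hr hs hsr hsn t u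
  have hw : D.wordMat F (D.commWord F r s t u) = D.x F w ((ε : F) * (-t) * u) := by
    unfold ChevalleyDatum.commWord ChevalleyDatum.wordMat
    rw [hct]
    simp only [List.map_cons, List.map_nil, List.prod_cons, List.prod_nil, mul_one, pow_one]
  rw [hw] at hcf
  exact Units.ext (by simpa only [Units.val_mul, coe_xU] using hcf)

end

/-- the side conditions of an empty commutator formula, as a Boolean -/
def commB (D : ChevalleyDatum) (r s : ℕ) : Bool :=
  decide (r < D.nroots ∧ s < D.nroots ∧ s ≠ r ∧ s ≠ D.neg r ∧ D.commTerms r s = [])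

/-- two-generation over the field with two elements from certificates -/
theorem pkgTwo_of_cert (D : ChevalleyDatum)
    (hD : D ∈ [chevG2, chevB2, chevD4, chevF4, chevE6, chevE7, chevE8])
    (l : List (Fin D.rank)) (i r s t v : ℕ) (ε : ℤ) (cs1 cs2 : List (ℕ × ℕ × ℕ × ℕ))
    (hi : i < D.rank) (hr : r < D.nroots) (hs : s < D.nroots) (ht : t < D.nroots)
    (hv : v < D.nroots) (hsr : s ≠ r)
    (hsn : s ≠ D.neg r) (hct : D.commTerms r s = [(v, ε, 1, 1)]) (hε : ε = 1 ∨ ε = -1)
    (hsv : commB D s v = true) (hrt : commB D r t = true) (hst : commB D s t = true)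
    (h1 : Nat.testBit (run D l i cs1 (2 ^ v, 0)).2 r = true ∧
      Nat.testBit (run D l i cs1 (2 ^ v, 0)).2 s = true)
    (h2 : (run D l i cs2 ((run D l i cs1 (2 ^ v, 0)).1 ||| 2 ^ t,
      (run D l i cs1 (2 ^ v, 0)).2)).2 = 2 ^ D.nroots - 1) : PkgTwo.{u} D := by
  intro F _ _ hF2
  have h2F : (2 : F) = 0 := by
    rcases hF2 (1 + 1) with h | h
    · rw [← h]; norm_num
    · exfalso
      have : (1 : F) = 0 := by linear_combination h
      exact one_ne_zero this
  have hneg : (-1 : F) = 1 := by linear_combination -h2F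
  refine ⟨xU D hD r 1 * xU D hD s 1 * xU D hD t 1, nW D hD l,
    (D.group F).mul_mem ((D.group F).mul_mem (xU_mem_group D hD _ _) (xU_mem_group D hD _ _))
      (xU_mem_group D hD _ _), nW_mem_group D hD l, ?_⟩
  obtain ⟨K, hK⟩ : ∃ K : Subgroup (GL D.Idx F),
      K = Subgroup.closure ({xU D hD r 1 * xU D hD s 1 * xU D hD t 1, nW D hD l} :
        Set (GL D.Idx F)) := ⟨_, rfl⟩
  rw [← hK]
  have ha : xU D hD r 1 * xU D hD s 1 * xU D hD t 1 ∈ K := by
    rw [hK]; exact Subgroup.subset_closure (by simp)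
  have hb : nW (F := F) D hD l ∈ K := by rw [hK]; exact Subgroup.subset_closure (by simp)
  simp only [commB, decide_eq_true_eq] at hsv hrt hst
  have hsq : ∀ w : ℕ, w < D.nroots → xU D hD w (1 : F) * xU D hD w 1 = 1 := by
    intro w hw
    rw [Cfsg.Agent.Lib.Helper17.xU_mul_xU D hD w hw, one_add_one_eq_two, h2F,
      Cfsg.Agent.Lib.Helper18.xU_zero]
  have hv1 : xU D hD v (1 : F) ∈ K := by
    have e := sq_trick (xU D hD r (1 : F)) (xU D hD s 1) (xU D hD t 1)
      (xU D hD v ((ε : F) * (-1) * 1))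
      (xU_comm D hD r t hrt.1 hrt.2.1 hrt.2.2.1 hrt.2.2.2.1 hrt.2.2.2.2 1 1)
      (xU_comm D hD s t hst.1 hst.2.1 hst.2.2.1 hst.2.2.2.1 hst.2.2.2.2 1 1)
      (xU_cf1 D hD r s v ε hr hs hsr hsn hct 1 1)
      (xU_comm D hD s v hsv.1 hsv.2.1 hsv.2.2.1 hsv.2.2.2.1 hsv.2.2.2.2 1 _)
      (hsq r hr) (hsq s hs) (hsq t ht)
    have e2 : ((ε : ℤ) : F) * (-1) * 1 = 1 := by
      rcases hε with rfl | rfl
      · simp [hneg]
      · simp
    rw [e2] at e
    rw [← e]
    exact K.mul_mem ha ha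
  have h1K : (1 : GL D.Idx F) ∈ K := K.one_mem
  have hc : (((1 : GL D.Idx F)) : Matrix D.Idx D.Idx F) = D.hMat F (D.simple i) 1 := by
    rw [Units.val_one, hMat_one D hD _ (simple_lt D hD i hi)]
  have hgen : ∀ x : F, x ≠ 0 → ∃ n : ℕ, x = (1 : F) ^ n := by
    intro x hx
    rcases hF2 x with h | h
    · exact absurd h hx
    · exact ⟨0, by rw [h, pow_zero]⟩
  have inv1 := run_inv D hD K l hb 1 h1K i hi 1 one_ne_zero hc hgen cs1 (2 ^ v, 0)
    ⟨fun w hw => by
        rw [Nat.testBit_two_pow] at hw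
        have e : v = w := of_decide_eq_true hw
        subst e
        exact ⟨hv, hv1⟩,
      fun w hw => by simp at hw⟩
  have hrK : xU D hD r (1 : F) ∈ K := (inv1.2 r h1.1).2 1
  have hsK : xU D hD s (1 : F) ∈ K := (inv1.2 s h1.2).2 1
  have htK : xU D hD t (1 : F) ∈ K := by
    have e : xU D hD t (1 : F) =
        (xU D hD r 1 * xU D hD s 1)⁻¹ * (xU D hD r 1 * xU D hD s 1 * xU D hD t 1) := by group
    rw [e]
    exact K.mul_mem (K.inv_mem (K.mul_mem hrK hsK)) ha
  apply le_of_full D hD K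
  refine full_of_run D hD K l hb 1 h1K i hi 1 one_ne_zero hc hgen cs2 _ ?_ h2
  refine ⟨fun w hw => ?_, inv1.2⟩
  rcases testBit_lor_pow _ _ _ hw with hw | rfl
  · exact inv1.1 w hw
  · exact ⟨ht, htK⟩

end Cfsg.Agent.Lib.Helper36.Gen2
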